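import Mathlib
import Cfsg.Agent.H16.CertArr

/-! Linear maps over the field of two elements on vectors packed into one number. -/

set_option autoImplicit false

namespace Cfsg.Agent.H47.J4

open Cfsg.Agent.H16

/-- a linear map given by the images of the basis -/
def lin : List Nat → Nat → Nat
  | [], _ => 0
  | c :: cs, v => (v % 2) * c ^^^ lin cs (v / 2)

/-- width of a packed vector -/
abbrev width : Nat := 112

theorem mod_two_mul_lt (v c n : Nat) (h : c < 2 ^ n) : v % 2 * c < 2 ^ n := by
  rcases Nat.mod_two_eq_zero_or_one v with e | e <;> rw [e]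
  · simp
  · simpa using h

theorem lin_lt {n : Nat} : ∀ (cs : List Nat), (∀ c ∈ cs, c < 2 ^ n) → ∀ v, lin cs v < 2 ^ n
  | [], _, _ => Nat.two_pow_pos n
  | c :: cs, h, v =>
    Nat.xor_lt_two_pow (mod_two_mul_lt v c n (h c (List.mem_cons_self ..)))
      (lin_lt cs (fun x hx => h x (List.mem_cons_of_mem _ hx)) _)

theorem lin_xor : ∀ (cs : List Nat) (a b : Nat), lin cs (a ^^^ b) = lin cs a ^^^ lin cs b
  | [], _, _ => by simp [lin]
  | c :: cs, a, b => by
    simp only [lin, Nat.xor_div_two, lin_xor cs]
    rw [show (a ^^^ b) % 2 = (a % 2) ^^^ (b % 2) from Nat.xor_mod_two_pow (n := 1)]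
    generalize lin cs (a / 2) = p
    generalize lin cs (b / 2) = q
    rcases Nat.mod_two_eq_zero_or_one a with ea | ea <;>
      rcases Nat.mod_two_eq_zero_or_one b with eb | eb <;>
      simp [ea, eb, Nat.xor_assoc, Nat.xor_left_comm]

theorem lin_zero (cs : List Nat) : lin cs 0 = 0 := by simpa using lin_xor cs 0 0

/-- one bit in each of `k` blocks -/
noncomputable def mask (k : Nat) : Nat :=
  Nat.rec (motive := fun _ => Nat) 0 (fun _ m => Nat.add 1 (Nat.mul (2 ^ width) m)) k

theorem mask_succ (k : Nat) : mask (k + 1) = 1 + 2 ^ width * mask k := rfl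

/-- the linear map on all blocks of a number -/
noncomputable def par (m : Nat) : List Nat → Nat → Nat → Nat :=
  List.rec (motive := fun _ => Nat → Nat → Nat) (fun _ _ => 0)
    (fun c _ ih V j => forceNat j fun j =>
      Nat.xor (Nat.mul (Nat.land (Nat.shiftRight V j) m) c) (ih V (Nat.succ j)))

theorem par_cons (m c : Nat) (cs : List Nat) (V j : Nat) :
    par m (c :: cs) V j = (((V >>> j) &&& m) * c) ^^^ par m cs V (j + 1) := by
  simp only [par, forceNat_eq]
  rfl

theorem xor_split {n a b A B : Nat} (ha : a < 2 ^ n) (hb : b < 2 ^ n) :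
    (a + 2 ^ n * A) ^^^ (b + 2 ^ n * B) = (a ^^^ b) + 2 ^ n * (A ^^^ B) := by
  have hm := Nat.two_pow_pos n
  rw [← Nat.mod_add_div ((a + 2 ^ n * A) ^^^ (b + 2 ^ n * B)) (2 ^ n), Nat.xor_mod_two_pow,
    Nat.xor_div_two_pow, Nat.add_mul_mod_self_left, Nat.add_mul_mod_self_left,
    Nat.mod_eq_of_lt ha, Nat.mod_eq_of_lt hb, Nat.add_mul_div_left _ _ hm,
    Nat.add_mul_div_left _ _ hm, Nat.div_eq_of_lt ha, Nat.div_eq_of_lt hb, zero_add, zero_add]

theorem slice_split {v W j k : Nat} (hv : v < 2 ^ width) (hj : j < width) :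
    ((v + 2 ^ width * W) >>> j) &&& mask (k + 1) =
      (v >>> j) % 2 + 2 ^ width * ((W >>> j) &&& mask k) := by
  have hm := Nat.two_pow_pos width
  have h1 : (1 : Nat) < 2 ^ width := Nat.one_lt_two_pow (by norm_num)
  rw [← Nat.mod_add_div (((v + 2 ^ width * W) >>> j) &&& mask (k + 1)) (2 ^ width),
    Nat.and_mod_two_pow, Nat.and_div_two_pow, mask_succ, Nat.add_mul_mod_self_left,
    Nat.mod_eq_of_lt h1, Nat.add_mul_div_left _ _ hm, Nat.div_eq_of_lt h1, zero_add,
    Nat.and_one_is_mod]
  congr 1
  · rw [Nat.mod_mod_of_dvd _ (dvd_pow_self 2 (by norm_num)), Nat.shiftRight_eq_div_pow,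
      Nat.shiftRight_eq_div_pow]
    have e : 2 ^ width * W = 2 ^ j * (2 * (2 ^ (width - j - 1) * W)) := by
      rw [← mul_assoc 2, ← pow_succ', ← mul_assoc, ← pow_add,
        show j + (width - j - 1 + 1) = width by omega]
    rw [e, Nat.add_mul_div_left _ _ (Nat.two_pow_pos j), Nat.add_mul_mod_self_left]
  · congr 2
    rw [Nat.shiftRight_eq_div_pow, Nat.shiftRight_eq_div_pow, Nat.div_div_eq_div_mul,
      Nat.mul_comm (2 ^ j), ← Nat.div_div_eq_div_mul, Nat.add_mul_div_left _ _ hm,
      Nat.div_eq_of_lt hv, zero_add]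

theorem par_split {v W k : Nat} (hv : v < 2 ^ width) : ∀ (cs : List Nat) (j : Nat),
    (∀ c ∈ cs, c < 2 ^ width) → j + cs.length ≤ width →
    par (mask (k + 1)) cs (v + 2 ^ width * W) j = lin cs (v >>> j) + 2 ^ width * par (mask k) cs W j
  | [], j, _, _ => by simp [par, lin]
  | c :: cs, j, hc, hl => by
    rw [List.length_cons] at hl
    have hc' := fun x hx => hc x (List.mem_cons_of_mem c hx)
    rw [par_cons, par_cons, slice_split hv (by omega), par_split hv cs (j + 1) hc' (by omega),
      add_mul, mul_assoc, xor_split (mod_two_mul_lt _ _ _ (hc c (List.mem_cons_self ..)))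
        (lin_lt cs hc' _), lin, Nat.shiftRight_succ]

/-- vectors packed into one number -/
def packV : List Nat → Nat
  | [] => 0
  | v :: vs => v + 2 ^ width * packV vs

theorem par_packV (cs : List Nat) (hc : ∀ c ∈ cs, c < 2 ^ width) (hl : cs.length ≤ width) :
    ∀ vs : List Nat, (∀ v ∈ vs, v < 2 ^ width) →
      par (mask vs.length) cs (packV vs) 0 = packV (vs.map (lin cs))
  | [], _ => by
    have : ∀ (l : List Nat) j, par (mask 0) l 0 j = 0 := by
      intro l
      induction l with
      | nil => exact fun _ => rfl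
      | cons c l ih => intro j; rw [par_cons, ih]; simp [mask]
    simpa [packV] using this cs 0
  | v :: vs, h => by
    rw [List.length_cons, packV, par_split (h v (List.mem_cons_self ..)) cs 0 hc (by omega),
      par_packV cs hc hl vs fun x hx => h x (List.mem_cons_of_mem _ hx)]
    rfl

theorem packV_inj : ∀ {a b : List Nat}, (∀ v ∈ a, v < 2 ^ width) → (∀ v ∈ b, v < 2 ^ width) →
    a.length = b.length → packV a = packV b → a = b
  | [], [], _, _, _, _ => rfl
  | [], _ :: _, _, _, h, _ => by simp at h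
  | _ :: _, [], _, _, h, _ => by simp at h
  | x :: a, y :: b, ha, hb, hl, h => by
    have hx := ha x (List.mem_cons_self ..)
    have hy := hb y (List.mem_cons_self ..)
    simp only [packV] at h
    have e := congrArg (fun n => n % 2 ^ width) h
    simp only [Nat.add_mul_mod_self_left, Nat.mod_eq_of_lt hx, Nat.mod_eq_of_lt hy] at e
    have d := congrArg (fun n => n / 2 ^ width) h
    simp only [Nat.add_mul_div_left _ _ (Nat.two_pow_pos width), Nat.div_eq_of_lt hx,
      Nat.div_eq_of_lt hy, zero_add] at d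
    rw [e, packV_inj (fun v hv => ha v (List.mem_cons_of_mem _ hv))
      (fun v hv => hb v (List.mem_cons_of_mem _ hv)) (by simpa using hl) d]

/-- apply a word, the last letter first -/
def wapp (col : Nat → List Nat) : List Nat → Nat → Nat
  | [], v => v
  | g :: w, v => lin (col g) (wapp col w v)

/-- apply a word to all blocks -/
noncomputable def wpar (col : Nat → List Nat) (m V : Nat) : List Nat → Nat :=
  List.rec (motive := fun _ => Nat) V (fun g _ ih => forceNat ih fun U => par m (col g) U 0)

theorem wapp_xor (col : Nat → List Nat) :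
    ∀ (w : List Nat) (a b : Nat), wapp col w (a ^^^ b) = wapp col w a ^^^ wapp col w b
  | [], _, _ => rfl
  | g :: w, a, b => by simp only [wapp, wapp_xor col w, lin_xor]

theorem wapp_zero (col : Nat → List Nat) : ∀ w : List Nat, wapp col w 0 = 0
  | [] => rfl
  | g :: w => by simp only [wapp, wapp_zero col w, lin_zero]

theorem wapp_lt {col : Nat → List Nat} (hc : ∀ g, ∀ c ∈ col g, c < 2 ^ width) :
    ∀ (w : List Nat) (v : Nat), v < 2 ^ width → wapp col w v < 2 ^ width
  | [], _, h => h
  | g :: w, _, _ => lin_lt _ (hc g) _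

theorem wpar_packV {col : Nat → List Nat} (hc : ∀ g, ∀ c ∈ col g, c < 2 ^ width)
    (hl : ∀ g, (col g).length ≤ width) (vs : List Nat) (hv : ∀ v ∈ vs, v < 2 ^ width) :
    ∀ w : List Nat, wpar col (mask vs.length) (packV vs) w = packV (vs.map (wapp col w))
  | [] => by simp [wpar, wapp]
  | g :: w => by
    have e : wpar col (mask vs.length) (packV vs) (g :: w) =
        par (mask vs.length) (col g) (wpar col (mask vs.length) (packV vs) w) 0 := by
      simp only [wpar, forceNat_eq]
    rw [e, wpar_packV hc hl vs hv w]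
    have h := par_packV (col g) (hc g) (hl g) (vs.map (wapp col w)) (by
      intro v hv'
      obtain ⟨u, hu, rfl⟩ := List.mem_map.1 hv'
      exact wapp_lt hc w u (hv u hu))
    rw [List.length_map, List.map_map] at h
    exact h

/-- additive functions agreeing on the basis agree -/
theorem eq_of_basis {f g : Nat → Nat} (f0 : f 0 = 0) (g0 : g 0 = 0)
    (hf : ∀ a b, f (a ^^^ b) = f a ^^^ f b) (hg : ∀ a b, g (a ^^^ b) = g a ^^^ g b) :
    ∀ n, (∀ i, i < n → f (2 ^ i) = g (2 ^ i)) → ∀ v, v < 2 ^ n → f v = g v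
  | 0, _, v, hv => by
    obtain rfl : v = 0 := by omega
    rw [f0, g0]
  | n + 1, h, v, hv => by
    have hn := fun i (hi : i < n) => h i (by omega)
    cases hb : v.testBit n with
    | false =>
      refine eq_of_basis f0 g0 hf hg n hn v (Nat.lt_pow_two_of_testBit _ fun i hi => ?_)
      rcases Nat.eq_or_lt_of_le hi with rfl | hi'
      · exact hb
      · exact Nat.testBit_lt_two_pow (Nat.lt_of_lt_of_le hv (Nat.pow_le_pow_right (by norm_num) hi'))
    | true =>
      have hw : v ^^^ 2 ^ n < 2 ^ n := by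
        refine Nat.lt_pow_two_of_testBit _ fun i hi => ?_
        rw [Nat.testBit_xor, Nat.testBit_two_pow]
        rcases Nat.eq_or_lt_of_le hi with rfl | hi'
        · simp [hb]
        · rw [Nat.testBit_lt_two_pow (Nat.lt_of_lt_of_le hv
            (Nat.pow_le_pow_right (by norm_num) hi'))]
          simp [Nat.ne_of_lt hi']
      have e : v = (v ^^^ 2 ^ n) ^^^ 2 ^ n := by simp
      rw [e, hf, hg, eq_of_basis f0 g0 hf hg n hn _ hw, h n (by omega)]

/-- the basis -/
def basisV : List Nat := (List.range width).map (2 ^ ·)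

/-- the word acts trivially on the basis -/
noncomputable def wfix (col : Nat → List Nat) (w : List Nat) : Bool :=
  forceNat (packV basisV) fun E => forceNat (mask width) fun m => Nat.beq (wpar col m E w) E

theorem wapp_of_wfix {col : Nat → List Nat} (hc : ∀ g, ∀ c ∈ col g, c < 2 ^ width)
    (hl : ∀ g, (col g).length ≤ width) {w : List Nat} (h : wfix col w = true) {v : Nat}
    (hv : v < 2 ^ width) : wapp col w v = v := by
  have hlen : basisV.length = width := by simp [basisV]
  have hb : ∀ x ∈ basisV, x < 2 ^ width := by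
    intro x hx
    obtain ⟨i, hi, rfl⟩ := List.mem_map.1 hx
    exact Nat.pow_lt_pow_right (by norm_num) (List.mem_range.1 hi)
  simp only [wfix, forceNat_eq] at h
  have e := Nat.eq_of_beq_eq_true h
  have hp := wpar_packV hc hl basisV hb w
  rw [hlen] at hp
  rw [hp] at e
  have hl' := packV_inj (fun x hx => by
    obtain ⟨u, hu, rfl⟩ := List.mem_map.1 hx
    exact wapp_lt hc w u (hb u hu)) hb (List.length_map _) e
  refine eq_of_basis (g := id) (wapp_zero col w) rfl (wapp_xor col w) (fun _ _ => rfl) width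
    (fun i hi => ?_) v hv
  have hm : 2 ^ i ∈ basisV := List.mem_map.2 ⟨i, List.mem_range.2 hi, rfl⟩
  exact (List.map_eq_map_iff (g := id)).1 (hl'.trans (List.map_id _).symm) _ hm

end Cfsg.Agent.H47.J4
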