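import Cfsg.Agent.H47.J4.CodeDef

/-! Kernel checks of the conjugates below 16000. -/

set_option autoImplicit false

namespace Cfsg.Agent.H47.J4

open Cfsg.Agent.H16

theorem codes_8000 : allFrom checkCode 1000 8000 = true := by decide +kernel

theorem codes_9000 : allFrom checkCode 1000 9000 = true := by decide +kernel

theorem codes_10000 : allFrom checkCode 1000 10000 = true := by decide +kernel

theorem codes_11000 : allFrom checkCode 1000 11000 = true := by decide +kernel

theorem codes_12000 : allFrom checkCode 1000 12000 = true := by decide +kernel

theorem codes_13000 : allFrom checkCode 1000 13000 = true := by decide +kernel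

theorem codes_14000 : allFrom checkCode 1000 14000 = true := by decide +kernel

theorem codes_15000 : allFrom checkCode 1000 15000 = true := by decide +kernel

end Cfsg.Agent.H47.J4
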