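import Cfsg.Agent.H47.J4.CodeDef

/-! Kernel checks of the conjugates below 24000. -/

set_option autoImplicit false

namespace Cfsg.Agent.H47.J4

open Cfsg.Agent.H16

theorem codes_16000 : allFrom checkCode 1000 16000 = true := by decide +kernel

theorem codes_17000 : allFrom checkCode 1000 17000 = true := by decide +kernel

theorem codes_18000 : allFrom checkCode 1000 18000 = true := by decide +kernel

theorem codes_19000 : allFrom checkCode 1000 19000 = true := by decide +kernel

theorem codes_20000 : allFrom checkCode 1000 20000 = true := by decide +kernel

theorem codes_21000 : allFrom checkCode 1000 21000 = true := by decide +kernel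

theorem codes_22000 : allFrom checkCode 1000 22000 = true := by decide +kernel

theorem codes_23000 : allFrom checkCode 1000 23000 = true := by decide +kernel

end Cfsg.Agent.H47.J4
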