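import Cfsg.Agent.H47.J4.CodeDef

/-! Kernel checks of the conjugates below 31878. -/

set_option autoImplicit false

namespace Cfsg.Agent.H47.J4

open Cfsg.Agent.H16

theorem codes_24000 : allFrom checkCode 1000 24000 = true := by decide +kernel

theorem codes_25000 : allFrom checkCode 1000 25000 = true := by decide +kernel

theorem codes_26000 : allFrom checkCode 1000 26000 = true := by decide +kernel

theorem codes_27000 : allFrom checkCode 1000 27000 = true := by decide +kernel

theorem codes_28000 : allFrom checkCode 1000 28000 = true := by decide +kernel

theorem codes_29000 : allFrom checkCode 1000 29000 = true := by decide +kernel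

theorem codes_30000 : allFrom checkCode 1000 30000 = true := by decide +kernel

theorem codes_31000 : allFrom checkCode 878 31000 = true := by decide +kernel

end Cfsg.Agent.H47.J4
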