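import Cfsg.Agent.H47.J4.Codes0
import Cfsg.Agent.H47.J4.Codes1
import Cfsg.Agent.H47.J4.Codes2
import Cfsg.Agent.H47.J4.Codes3

/-! Validity of the conjugates. -/

set_option autoImplicit false

namespace Cfsg.Agent.H47.J4

open Cfsg.Agent.H16

/-- All conjugates pass the check. -/
theorem codes_ok : ∀ i, i < cert.n → checkCode i = true :=
    (allFrom_extend (allFrom_extend (allFrom_extend (allFrom_extend (allFrom_extend (allFrom_extend (allFrom_extend (allFrom_extend (allFrom_extend (allFrom_extend (allFrom_extend (allFrom_extend (allFrom_extend (allFrom_extend (allFrom_extend (allFrom_extend (allFrom_extend (allFrom_extend (allFrom_extend (allFrom_extend (allFrom_extend (allFrom_extend (allFrom_extend (allFrom_extend (allFrom_extend (allFrom_extend (allFrom_extend (allFrom_extend (allFrom_extend (allFrom_extend (allFrom_extend (allFrom_extend allFrom_nil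
    codes_0)
    codes_1000)
    codes_2000)
    codes_3000)
    codes_4000)
    codes_5000)
    codes_6000)
    codes_7000)
    codes_8000)
    codes_9000)
    codes_10000)
    codes_11000)
    codes_12000)
    codes_13000)
    codes_14000)
    codes_15000)
    codes_16000)
    codes_17000)
    codes_18000)
    codes_19000)
    codes_20000)
    codes_21000)
    codes_22000)
    codes_23000)
    codes_24000)
    codes_25000)
    codes_26000)
    codes_27000)
    codes_28000)
    codes_29000)
    codes_30000)
    codes_31000)

end Cfsg.Agent.H47.J4
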