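import Cfsg.Agent.H47.J4.CentralBase
import Cfsg.Agent.H47.J4.Check
import Cfsg.Agent.H47.J4.Codes
import Cfsg.Agent.H82.Central
import Cfsg.Agent.H10.MathieuMult

/-! The presented group is a stem extension of the Mathieu group, hence isomorphic to it. -/

set_option autoImplicit false

namespace Cfsg.Agent.H47.J4

open Cfsg.Agent.H16

/-- the subgroup generated by the extra words -/
def subK : Subgroup PGrp :=
  Subgroup.closure (Set.range fun k : Fin 12 => evp pval (nthWord certWords (18 + k)))

theorem comm_of_mem_subK {z : PGrp} (hz : z ∈ subK) : pval 0 * z = z * pval 0 := by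
  have h : subK ≤ Subgroup.centralizer {pval 0} := by
    rw [subK, Subgroup.closure_le]
    rintro _ ⟨k, rfl⟩
    exact Subgroup.mem_centralizer_singleton_iff.2 (evp_sub good_pval k.2).symm
  exact (Subgroup.mem_centralizer_singleton_iff.1 (h hz)).symm

/-- the base coset -/
def base0 : PGrp ⧸ subK := QuotientGroup.mk 1

/-- the point of a coset number -/
noncomputable def point (i : Nat) : PGrp ⧸ subK := cert.node pval base0 (cert.repNode i)

theorem fix_base0 {z : PGrp} : z • base0 = base0 ↔ z ∈ subK := by
  show ((z * 1 : PGrp) : PGrp ⧸ subK) = ((1 : PGrp) : PGrp ⧸ subK) ↔ _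
  rw [QuotientGroup.eq, mul_one, mul_one, inv_mem_iff]

theorem hfix (k : Nat) : evp pval (nthWord cert.words k) • base0 = base0 := by
  rw [fix_base0]
  show evp pval (nthWord certWords k) ∈ subK
  rcases Nat.lt_or_ge k 18 with hk | hk
  · rw [evp_rel good_pval hk]; exact one_mem _
  obtain ⟨j, rfl⟩ := Nat.exists_eq_add_of_le hk
  rcases Nat.lt_or_ge j 12 with hj | hj
  · exact Subgroup.subset_closure ⟨⟨j, hj⟩, rfl⟩
  · rw [nthWord_eq_getD, List.getD_eq_default _ _ (by rw [length_certWords]; omega)]
    exact one_mem _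

theorem point_smul {i g : Nat} (hi : i < cert.n) (hg : g < 3) :
    cert.act i g < cert.n ∧ pval g • point i = point (cert.act i g) :=
  cert.smul_rep pval base0 valid good_pval.iv good_pval.three
    (fun k hk => evp_rel good_pval hk) hfix hi hg

/-- the conjugate of the involution attached to a coset number, as a function -/
noncomputable def cfun (i : Nat) (q : Fin 24) : Fin 24 := pt (cget i q)

theorem cfun_zero (q : Fin 24) : cfun 0 q = mX q := by
  apply Fin.ext
  show cget 0 q % 24 = _
  rw [cget_zero, Nat.mod_eq_of_lt (Fin.is_lt _)]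

theorem allFrom_of_forall {p : Nat → Bool} :
    ∀ (n lo : Nat), (∀ i, lo ≤ i → i < lo + n → p i = true) → allFrom p n lo = true
  | 0, _, _ => rfl
  | n + 1, lo, h => by
    rw [allFrom_succ, Bool.and_eq_true]
    exact ⟨h lo le_rfl (by omega),
      allFrom_of_forall n _ fun i h1 h2 => h i (by omega) (by omega)⟩

theorem cget_lt {i : Nat} (hi : i < cert.n) (q : Fin 24) : cget i q < 24 := by
  have h := codes_ok i hi
  simp only [checkCode, forceNat_eq, Bool.and_eq_true] at h
  have h1 := allFrom_spec (allFrom_spec h.1 0 le_rfl (by omega)) q (Nat.zero_le _) (by omega)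
  simp only [Bool.and_eq_true] at h1
  exact Nat.le_of_ble_eq_true h1.1

theorem cfun_act {i g : Nat} (hi : i < cert.n) (hg : g < 3) (q : Fin 24) :
    cfun (cert.act i g) (mval g q) = mval g (cfun i q) := by
  have h := codes_ok i hi
  simp only [checkCode, forceNat_eq, Bool.and_eq_true] at h
  have h1 := allFrom_spec (allFrom_spec h.1 g (Nat.zero_le _) (by omega)) q (Nat.zero_le _)
    (by omega)
  simp only [Bool.and_eq_true] at h1
  have e : cget (cert.act i g) (permImg g q) = permImg g (cget i q) :=
    Nat.eq_of_beq_eq_true h1.2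
  have hv : cget i q = (cfun i q : Nat) := (Nat.mod_eq_of_lt (cget_lt hi q)).symm
  rw [permImg_eq ⟨g, hg⟩ q, hv, permImg_eq ⟨g, hg⟩ (cfun i q)] at e
  apply Fin.ext
  show cget (cert.act i g) (mval g q : Fin 24) % 24 = _
  rw [e, Nat.mod_eq_of_lt (Fin.is_lt _)]

theorem eq_zero_of_cfun {i : Nat} (hi : i < cert.n) (h : ∀ q, cfun i q = cfun 0 q) : i = 0 := by
  have h' := codes_ok i hi
  simp only [checkCode, forceNat_eq, Bool.and_eq_true, Bool.or_eq_true, Bool.not_eq_true'] at h'
  rcases h'.2 with h0 | h0
  · exact Nat.eq_of_beq_eq_true h0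
  have ht : allFrom (fun q => Nat.beq (cget i q) (cget 0 q)) 24 0 = true := by
    refine allFrom_of_forall 24 0 fun q _ hq => ?_
    have e : (cfun i ⟨q, by omega⟩ : Nat) = cfun 0 ⟨q, by omega⟩ := by rw [h]
    change cget i q % 24 = cget 0 q % 24 at e
    rw [Nat.mod_eq_of_lt (cget_lt hi ⟨q, by omega⟩),
      Nat.mod_eq_of_lt (cget_lt valid.pos ⟨q, by omega⟩)] at e
    rw [e]
    exact Nat.beq_refl _
  rw [ht] at h0
  exact absurd h0 (by decide)

/-- compatibility of the coset action with conjugation -/
def Moves (z : PGrp) : Prop :=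
  ∀ i, i < cert.n → ∃ j, j < cert.n ∧ z • point i = point j ∧
    ∀ q, cfun j (phom good_mval z q) = phom good_mval z (cfun i q)

theorem moves_letter_mul {g : Nat} (hg : g < 3) {z : PGrp} (hz : Moves z) :
    Moves (pval g * z) := by
  intro i hi
  obtain ⟨j, hj, hp, hc⟩ := hz i hi
  obtain ⟨hk, hkp⟩ := point_smul hj hg
  refine ⟨_, hk, by rw [mul_smul, hp, hkp], fun q => ?_⟩
  rw [map_mul, phom_pval, Equiv.Perm.mul_apply, Equiv.Perm.mul_apply, cfun_act hj hg, hc]

theorem moves_all (z : PGrp) : Moves z := by
  have hz : z ∈ Subgroup.closure ({pval 0, pval 1} : Set PGrp) := closure_pval ▸ Subgroup.mem_top z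
  induction hz using Subgroup.closure_induction_left with
  | one => exact fun i hi => ⟨i, hi, one_smul _ _, fun q => by rw [map_one]; rfl⟩
  | mul_left x hx y _ hy =>
    rcases hx with rfl | rfl
    · exact moves_letter_mul (by norm_num) hy
    · exact moves_letter_mul (by norm_num) hy
  | inv_mul_cancel x hx y _ hy =>
    rcases hx with rfl | rfl
    · rw [← good_pval.iv]; exact moves_letter_mul (by decide) hy
    · rw [← good_pval.iv]; exact moves_letter_mul (by decide) hy

theorem ker_mval_le : (phom good_mval).ker ≤ subK := by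
  intro z hz
  obtain ⟨j, hj, hp, hc⟩ := moves_all z 0 valid.pos
  rw [MonoidHom.mem_ker] at hz
  have h0 : j = 0 := eq_zero_of_cfun hj fun q => by
    have := hc q
    rw [hz] at this
    exact this
  subst h0
  have hb : point 0 = base0 := by
    rw [point, valid.rep_zero, Cert.node_zero]
  rw [hb] at hp
  exact fix_base0.1 hp

theorem ker_mval_central : (phom good_mval).ker ≤ Subgroup.center PGrp := by
  intro z hz
  rw [Subgroup.mem_center_iff]
  intro y
  have h : ⊤ ≤ Subgroup.centralizer ({z} : Set PGrp) := by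
    rw [← normalClosure_x, Subgroup.normalClosure, Subgroup.closure_le]
    intro w hw
    rw [Group.mem_conjugatesOfSet_iff] at hw
    obtain ⟨a, rfl, hc⟩ := hw
    obtain ⟨c, rfl⟩ := isConj_iff.1 hc
    refine Subgroup.mem_centralizer_singleton_iff.2 ?_
    have hz' : c⁻¹ * z * c ∈ (phom good_mval).ker := by
      simpa using (MonoidHom.normal_ker (phom good_mval)).conj_mem z hz c⁻¹
    have e := comm_of_mem_subK (ker_mval_le hz')
    calc c * pval 0 * c⁻¹ * z = c * (pval 0 * (c⁻¹ * z * c)) * c⁻¹ := by group
      _ = c * ((c⁻¹ * z * c) * pval 0) * c⁻¹ := by rw [e]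
      _ = z * (c * pval 0 * c⁻¹) := by group
  exact Subgroup.mem_centralizer_singleton_iff.1 (h (Subgroup.mem_top y))

theorem ker_pi24 : pi24.ker = (phom good_mval).ker := by
  ext z
  have key : M24.subtype.comp pi24 = ptE.symm.permCongrHom.toMonoidHom.comp (phom good_mval) := by
    refine MonoidHom.eq_of_eqOn_dense closure_pval ?_
    rintro w (rfl | rfl) <;>
    · show ((pi24 _ : M24) : Equiv.Perm GolayPt) = ptE.symm.permCongrHom (phom good_mval _)
      rw [pi24, phom_pval, phom_pval]
      rfl
  rw [MonoidHom.mem_ker, MonoidHom.mem_ker]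
  have h := DFunLike.congr_fun key z
  constructor
  · intro hz
    rw [MonoidHom.comp_apply, hz, map_one] at h
    exact ptE.symm.permCongrHom.injective (h.symm.trans (map_one _).symm)
  · intro hz
    rw [MonoidHom.comp_apply, MonoidHom.comp_apply, hz, map_one] at h
    exact Subtype.ext h

theorem pi24_bijective : Function.Bijective pi24 := by
  refine ⟨?_, pi24_surjective⟩
  haveI : Finite M24 := Nat.finite_of_card_ne_zero (by rw [H11.card_M24]; decide)
  have hc : pi24.ker ≤ Subgroup.center PGrp := ker_pi24 ▸ ker_mval_central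
  haveI hfin : Finite (commutator PGrp) := H82.finite_commutator_of_central pi24 hc
  haveI : Finite PGrp := by
    rw [commutator_eq_top] at hfin
    exact Finite.of_equiv _ Subgroup.topEquiv.toEquiv
  exact H82.hasCyclicSchurMultiplier_one_iff.1 Cfsg.Agent.H10.mult_M24 PGrp pi24
    ⟨pi24_surjective, hc, commutator_eq_top ▸ le_top⟩

/-- The seven relators present the Mathieu group. -/
noncomputable def pgrpEquiv : PGrp ≃* M24 := MulEquiv.ofBijective pi24 pi24_bijective

end Cfsg.Agent.H47.J4
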