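import Cfsg.Agent.H47.J4.Data
import Cfsg.Agent.H47.J4.Model

/-! The relators and subgroup words of the enumeration, and general facts on the presented group. -/

set_option autoImplicit false

open scoped commutatorElement

namespace Cfsg.Agent.H47.J4

open Cfsg.Agent.H16

theorem relCerts_ok : ∀ k : Fin 18, isConseq (nthWord certWords k) (relCerts.getD k none) = true := by
  decide +kernel

theorem subCerts_ok : ∀ k : Fin 12,
    isConseq (invWord (nthWord certWords (18 + k)) ++ [0] ++ nthWord certWords (18 + k) ++ [0])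
      (subCerts.getD k none) = true := by
  decide +kernel

theorem length_certWords : certWords.length = 30 := rfl

theorem evp_rel {G : Type*} [Group G] {t : Nat → G} (ht : Good t) {k : Nat} (hk : k < 18) :
    evp t (nthWord certWords k) = 1 :=
  evp_of_conseq ht (relCerts_ok ⟨k, hk⟩)

theorem evp_sub {G : Type*} [Group G] {t : Nat → G} (ht : Good t) {k : Nat} (hk : k < 12) :
    t 0 * evp t (nthWord certWords (18 + k)) = evp t (nthWord certWords (18 + k)) * t 0 :=
  comm_of_conseq ht (subCerts_ok ⟨k, hk⟩)

theorem pow_xy : (pval 0 * pval 1) ^ 23 = 1 := by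
  have h := congrArg (·⁻¹) (good_pval.base (baseW[2]'(by decide)) (List.getElem_mem _))
  have e : pval 0 = (pval 0)⁻¹ := (inv_eq_of_mul_eq_one_right good_pval.sq).symm
  simp only [baseW, List.getElem_cons_succ, List.getElem_cons_zero, evp, one_mul, good_pval.two,
    mul_inv_rev, inv_inv, inv_one, mul_assoc] at h
  simpa [pow_succ, mul_assoc, ← e] using h

/-- A map killing the involution and respecting the relators is trivial. -/
theorem eq_one_of_x {Q : Type*} [Group Q] (f : PGrp →* Q) (hx : f (pval 0) = 1) : f = 1 := by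
  have h3 : f (pval 1) ^ 3 = 1 := by
    rw [← map_pow, show pval 1 ^ 3 = 1 by rw [pow_three, ← mul_assoc]; exact good_pval.cube, map_one]
  have h23 : f (pval 1) ^ 23 = 1 := by
    have e : f (pval 1) = f (pval 0 * pval 1) := by rw [map_mul, hx, one_mul]
    rw [e, ← map_pow, pow_xy, map_one]
  have h1 : f (pval 1) = 1 := by
    calc f (pval 1) = f (pval 1) ^ 23 * f (pval 1) := by rw [h23, one_mul]
      _ = (f (pval 1) ^ 3) ^ 8 := by rw [← pow_succ, ← pow_mul]
      _ = 1 := by rw [h3, one_pow]
  refine MonoidHom.eq_of_eqOn_dense closure_pval ?_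
  rintro z (rfl | rfl)
  · exact hx
  · exact h1

theorem normalClosure_x : Subgroup.normalClosure {pval 0} = (⊤ : Subgroup PGrp) := by
  refine eq_top_iff.2 fun z _ => ?_
  have h := eq_one_of_x (QuotientGroup.mk' (Subgroup.normalClosure {pval 0}))
    ((QuotientGroup.eq_one_iff _).2 (Subgroup.subset_normalClosure rfl))
  exact (QuotientGroup.eq_one_iff _).1 (DFunLike.congr_fun h z)

theorem commutator_eq_top : commutator PGrp = ⊤ := by
  refine eq_top_iff.2 fun z _ => ?_
  have key : (Abelianization.of : PGrp →* Abelianization PGrp) (pval 0) = 1 := by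
    set a := (Abelianization.of : PGrp →* Abelianization PGrp) (pval 0) with ha
    set b := (Abelianization.of : PGrp →* Abelianization PGrp) (pval 1) with hb
    have a2 : a * a = 1 := by rw [ha, ← map_mul, good_pval.sq, map_one]
    have b3 : b ^ 3 = 1 := by rw [hb, ← map_pow, pow_three, ← mul_assoc, good_pval.cube, map_one]
    have h : a ^ 23 * b ^ 23 = 1 := by
      rw [← mul_pow, ha, hb, ← map_mul, ← map_pow, pow_xy, map_one]
    have a23 : a ^ 23 = a := by
      rw [show (23 : ℕ) = 2 * 11 + 1 from rfl, pow_succ, pow_mul, pow_two, a2, one_pow, one_mul]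
    have b23 : b ^ 23 = b ^ 2 := by
      rw [show (23 : ℕ) = 3 * 7 + 2 from rfl, pow_add, pow_mul, b3, one_pow, one_mul]
    rw [a23, b23] at h
    have hab : a = b := by
      calc a = a * b ^ 3 := by rw [b3, mul_one]
        _ = (a * b ^ 2) * b := by rw [mul_assoc, ← pow_succ]
        _ = b := by rw [h, one_mul]
    calc a = b * (a * a) := by rw [a2, mul_one, hab]
      _ = b ^ 3 := by rw [hab, pow_three]
      _ = 1 := b3
  have h := eq_one_of_x _ key
  rw [← Abelianization.ker_of]
  exact DFunLike.congr_fun h z

end Cfsg.Agent.H47.J4
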