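import Cfsg.Agent.H47.J4.Data
import Cfsg.Agent.H47.J4.DataCodes
import Cfsg.Agent.H47.J4.Model

/-! The conjugates of the involution attached to the cosets. -/

set_option autoImplicit false

namespace Cfsg.Agent.H47.J4

open Cfsg.Agent.H16

/-- image of point `q` under the conjugate attached to coset `i` -/
noncomputable def cget (i q : Nat) : Nat :=
  bitField (codeArr.get 120 i) (Nat.mul 5 q) 5

/-- image of point `q` under the letter `g` -/
noncomputable def permImg (g q : Nat) : Nat :=
  bitField (permArr.getD g 0) (Nat.mul 5 q) 5

/-- equivariance of the attachment at coset `i`, and its difference from the one of coset zero -/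
noncomputable def checkCode (i : Nat) : Bool :=
  allFrom (fun g =>
    forceNat (cert.act i g) fun j =>
    forceNat (permArr.getD g 0) fun s =>
    forceNat (codeArr.get 120 j) fun c =>
    allFrom (fun q =>
      forceNat (cget i q) fun v =>
      Nat.ble (Nat.succ v) 24 &&
        Nat.beq (bitField c (Nat.mul 5 (bitField s (Nat.mul 5 q) 5)) 5)
          (bitField s (Nat.mul 5 v) 5)) 24 0) 3 0 &&
    (Nat.beq i 0 || !(allFrom (fun q => Nat.beq (cget i q) (cget 0 q)) 24 0))

theorem permImg_eq : ∀ g : Fin 3, ∀ q : Fin 24, permImg g q = ((mval g q : Fin 24) : Nat) := by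
  decide +kernel

theorem cget_zero : ∀ q : Fin 24, cget 0 q = ((mX q : Fin 24) : Nat) := by
  decide +kernel

end Cfsg.Agent.H47.J4
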