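import Cfsg.Agent.H47.J4.CodeDef

/-! Kernel checks of the conjugates below 8000. -/

set_option autoImplicit false

namespace Cfsg.Agent.H47.J4

open Cfsg.Agent.H16

theorem codes_0 : allFrom checkCode 1000 0 = true := by decide +kernel

theorem codes_1000 : allFrom checkCode 1000 1000 = true := by decide +kernel

theorem codes_2000 : allFrom checkCode 1000 2000 = true := by decide +kernel

theorem codes_3000 : allFrom checkCode 1000 3000 = true := by decide +kernel

theorem codes_4000 : allFrom checkCode 1000 4000 = true := by decide +kernel

theorem codes_5000 : allFrom checkCode 1000 5000 = true := by decide +kernel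

theorem codes_6000 : allFrom checkCode 1000 6000 = true := by decide +kernel

theorem codes_7000 : allFrom checkCode 1000 7000 = true := by decide +kernel

end Cfsg.Agent.H47.J4
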