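import Cfsg.Agent.H16.CertArr

/-!
Certificates of coset enumerations for groups generated by an involution (letter 0) and an element
of order three (letter 1, with inverse letter 2); letter 3 stands for the identity.
-/

set_option autoImplicit false

namespace Cfsg.Agent.H47.J4

open Cfsg.Agent.H16

/-- the inverse letter -/
noncomputable def iv (g : Nat) : Nat := Bool.rec (Bool.rec g 1 (Nat.beq g 2)) 2 (Nat.beq g 1)

/-- value of a word read along a path -/
def evp {G : Type*} [Group G] (s : Nat → G) : List Nat → G
  | [] => 1
  | g :: w => evp s w * s g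

theorem evp_append {G : Type*} [Group G] (s : Nat → G) :
    ∀ u v : List Nat, evp s (u ++ v) = evp s v * evp s u
  | [], v => by simp [evp]
  | g :: u, v => by simp [evp, evp_append s u v, mul_assoc]

/-- the inverse word -/
noncomputable def invWord (w : List Nat) : List Nat := (w.map iv).reverse

theorem evp_invWord {G : Type*} [Group G] (s : Nat → G) (hs : ∀ g, s (iv g) = (s g)⁻¹) :
    ∀ w : List Nat, evp s (invWord w) = (evp s w)⁻¹
  | [] => by simp [invWord, evp]
  | g :: w => by
    have h := evp_invWord s hs w
    simp only [invWord] at h ⊢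
    rw [List.map_cons, List.reverse_cons, evp_append, h]
    simp [evp, hs]

/-- The data of a certificate. -/
structure Cert where
  /-- number of cosets -/
  n : Nat
  /-- number of facts -/
  nf : Nat
  /-- words; the first `nrel` are relators, the rest fix the base point -/
  words : List (List Nat)
  /-- number of relators -/
  nrel : Nat
  /-- fact records -/
  facts : PArr
  /-- directed references to facts -/
  refs : PArr
  /-- parent and letter of a node -/
  defs : PArr
  /-- node of a coset -/
  rep : PArr
  /-- image and reference of a coset under a letter -/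
  table : PArr

namespace Cert

variable (D : Cert)

/-- record of a fact -/
noncomputable def fact (i : Nat) : Nat := D.facts.get 112 i
/-- first end -/
noncomputable def fa (i : Nat) : Nat := bitField (D.fact i) 0 18
/-- letter -/
noncomputable def fg (i : Nat) : Nat := bitField (D.fact i) 18 2
/-- second end -/
noncomputable def fb (i : Nat) : Nat := bitField (D.fact i) 20 18
/-- word number, 127 for a definition -/
noncomputable def fw (i : Nat) : Nat := bitField (D.fact i) 38 7
/-- base node -/
noncomputable def fz (i : Nat) : Nat := bitField (D.fact i) 45 18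
/-- length of the first walk -/
noncomputable def flu (i : Nat) : Nat := bitField (D.fact i) 63 12
/-- length of the second walk -/
noncomputable def flv (i : Nat) : Nat := bitField (D.fact i) 75 12
/-- offset in the references -/
noncomputable def foff (i : Nat) : Nat := bitField (D.fact i) 87 22

/-- add a letter to the result of a walk -/
noncomputable def push (g : Nat) (o : Option (Nat × List Nat)) : Option (Nat × List Nat) :=
  Option.rec (motive := fun _ => Option (Nat × List Nat)) none
    (fun p => forceNat g fun g => Bool.rec (some (p.1, g :: p.2)) (some p) (Nat.beq g 3)) o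

/-- walk along directed references to facts below `bound` -/
noncomputable def walk (bound k : Nat) : Nat → Nat → Option (Nat × List Nat) :=
  Nat.rec (motive := fun _ => Nat → Nat → Option (Nat × List Nat)) (fun _ cur => some (cur, []))
    (fun _ ih off cur =>
      forceNat off fun off =>
      forceNat cur fun cur =>
      forceNat (D.refs.get 22 off) fun r =>
      forceNat (Nat.div r 2) fun f =>
      forceNat (D.facts.get 112 f) fun x =>
      Bool.rec none
        (Bool.rec
          (Bool.rec none
            (push (iv (bitField x 18 2)) (ih (Nat.succ off) (bitField x 0 18)))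
            (Nat.beq (bitField x 20 18) cur))
          (Bool.rec none
            (push (bitField x 18 2) (ih (Nat.succ off) (bitField x 20 18)))
            (Nat.beq (bitField x 0 18) cur))
          (Nat.beq (Nat.mod r 2) 0))
        (Nat.ble (Nat.succ f) bound)) k

/-- check of a scanned fact -/
noncomputable def checkScan (fa fg fb w z : Nat) (p q : Option (Nat × List Nat)) : Bool :=
  Option.rec (motive := fun _ => Bool) false (fun au =>
    Option.rec (motive := fun _ => Bool) false (fun bv =>
      Nat.beq au.1 fa && Nat.beq bv.1 fb &&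
        (Nat.ble (Nat.succ w) D.nrel || Nat.beq z 0) &&
        natListEq (nthWord D.words w)
          (au.2 ++ (Bool.rec (fg :: invWord bv.2) (invWord bv.2) (Nat.beq fg 3)))) q) p

/-- check of one fact -/
noncomputable def checkFact (i : Nat) : Bool :=
  forceNat (D.facts.get 112 i) fun x =>
  forceNat (bitField x 0 18) fun fa =>
  forceNat (bitField x 18 2) fun fg =>
  forceNat (bitField x 20 18) fun fb =>
  forceNat (bitField x 38 7) fun w =>
  Bool.rec
    (forceNat (bitField x 45 18) fun z =>
      forceNat (bitField x 63 12) fun lu =>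
      forceNat (bitField x 87 22) fun off =>
      D.checkScan fa fg fb w z (D.walk i lu off z)
        (D.walk i (bitField x 75 12) (Nat.add off lu) z))
    (forceNat (D.defs.get 20 fb) fun d =>
      Nat.beq (bitField d 0 18) fa && Nat.beq (bitField d 18 2) fg && Nat.ble (Nat.succ fa) fb)
    (Nat.beq w 127)

/-- node of coset `i` -/
noncomputable def repNode (i : Nat) : Nat := D.rep.get 18 i
/-- image of coset `i` -/
noncomputable def act (i g : Nat) : Nat :=
  bitField (D.table.get 40 (Nat.add (Nat.mul i 3) g)) 0 18

/-- check of the row of coset `i` -/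
noncomputable def checkRow (i : Nat) : Bool :=
  allFrom (fun g =>
    forceNat (D.table.get 40 (Nat.add (Nat.mul i 3) g)) fun e =>
    forceNat (bitField e 0 18) fun d =>
    forceNat (bitField e 18 22) fun r =>
    forceNat (D.facts.get 112 (Nat.div r 2)) fun x =>
    Nat.ble (Nat.succ d) D.n && Nat.ble (Nat.succ (Nat.div r 2)) D.nf &&
      Bool.rec
        (Nat.beq (iv (bitField x 18 2)) g && Nat.beq (bitField x 20 18) (D.repNode i) &&
          Nat.beq (bitField x 0 18) (D.repNode d))
        (Nat.beq (bitField x 18 2) g && Nat.beq (bitField x 0 18) (D.repNode i) &&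
          Nat.beq (bitField x 20 18) (D.repNode d))
        (Nat.beq (Nat.mod r 2) 0)) 3 0

/-- a certificate with all checks -/
structure Valid : Prop where
  facts_ok : ∀ i, i < D.nf → D.checkFact i = true
  rows_ok : ∀ i, i < D.n → D.checkRow i = true
  pos : 1 ≤ D.n
  rep_zero : D.repNode 0 = 0

variable {G X : Type*} [Group G] [MulAction G X] (s : Nat → G) (x₀ : X)

/-- the node map -/
noncomputable def node (b : Nat) : X :=
  if h : bitField (D.defs.get 20 b) 0 18 < b then
    s (bitField (D.defs.get 20 b) 18 2) • node (bitField (D.defs.get 20 b) 0 18)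
  else x₀
  termination_by b

theorem node_zero : D.node s x₀ 0 = x₀ := by
  rw [node, dif_neg (Nat.not_lt_zero _)]

/-- what a fact says -/
def Holds (a g b : Nat) : Prop := s g • D.node s x₀ a = D.node s x₀ b

theorem walk_succ (bound k off cur : Nat) :
    D.walk bound (k + 1) off cur =
      Bool.rec none
        (Bool.rec
          (Bool.rec none
            (push (iv (D.fg (Nat.div (D.refs.get 22 off) 2)))
              (D.walk bound k (Nat.succ off) (D.fa (Nat.div (D.refs.get 22 off) 2))))
            (Nat.beq (D.fb (Nat.div (D.refs.get 22 off) 2)) cur))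
          (Bool.rec none
            (push (D.fg (Nat.div (D.refs.get 22 off) 2))
              (D.walk bound k (Nat.succ off) (D.fb (Nat.div (D.refs.get 22 off) 2))))
            (Nat.beq (D.fa (Nat.div (D.refs.get 22 off) 2)) cur))
          (Nat.beq (Nat.mod (D.refs.get 22 off) 2) 0))
        (Nat.ble (Nat.succ (Nat.div (D.refs.get 22 off) 2)) bound) := by
  delta walk fa fb fg fact
  simp only [forceNat_eq]

theorem push_sound (h3 : s 3 = 1) {g e : Nat} {w : List Nat} {o : Option (Nat × List Nat)}
    (h : push g o = some (e, w)) : ∃ w', o = some (e, w') ∧ evp s w = evp s w' * s g := by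
  rcases o with _ | ⟨e', w'⟩
  · simp [push] at h
  · simp only [push, forceNat_eq] at h
    cases hg : Nat.beq g 3 with
    | true =>
      simp only [hg, Option.some.injEq, Prod.mk.injEq] at h
      obtain ⟨rfl, rfl⟩ := h
      exact ⟨w', rfl, by rw [Nat.eq_of_beq_eq_true hg, h3, mul_one]⟩
    | false =>
      simp only [hg, Option.some.injEq, Prod.mk.injEq] at h
      obtain ⟨rfl, rfl⟩ := h
      exact ⟨w', rfl, rfl⟩

theorem walk_sound (hs : ∀ g, s (iv g) = (s g)⁻¹) (h3 : s 3 = 1) {bound : Nat}
    (IH : ∀ j, j < bound → D.Holds s x₀ (D.fa j) (D.fg j) (D.fb j)) :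
    ∀ (k off cur e : Nat) (w : List Nat), D.walk bound k off cur = some (e, w) →
      D.node s x₀ e = evp s w • D.node s x₀ cur := by
  intro k
  induction k with
  | zero =>
    intro off cur e w h
    obtain ⟨rfl, rfl⟩ : cur = e ∧ [] = w := by simpa [walk] using h
    simp [evp]
  | succ k ih =>
    intro off cur e w h
    rw [walk_succ] at h
    set r := D.refs.get 22 off
    set f := Nat.div r 2
    cases hb : Nat.ble (Nat.succ f) bound with
    | false => simp [hb] at h
    | true =>
      have hf : D.Holds s x₀ (D.fa f) (D.fg f) (D.fb f) := IH f (Nat.le_of_ble_eq_true hb)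
      unfold Holds at hf
      simp only [hb] at h
      cases ho : Nat.beq (Nat.mod r 2) 0 with
      | true =>
        simp only [ho] at h
        cases hc : Nat.beq (D.fa f) cur with
        | false => simp [hc] at h
        | true =>
          simp only [hc] at h
          obtain ⟨w', hw', hev⟩ := push_sound s h3 h
          rw [ih _ _ _ _ hw', hev, mul_smul, ← Nat.eq_of_beq_eq_true hc, hf]
      | false =>
        simp only [ho] at h
        cases hc : Nat.beq (D.fb f) cur with
        | false => simp [hc] at h
        | true =>
          simp only [hc] at h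
          obtain ⟨w', hw', hev⟩ := push_sound s h3 h
          rw [ih _ _ _ _ hw', hev, mul_smul, ← Nat.eq_of_beq_eq_true hc, hs, ← hf, inv_smul_smul]

theorem holds_all (hV : D.Valid) (hs : ∀ g, s (iv g) = (s g)⁻¹) (h3 : s 3 = 1)
    (hrel : ∀ k, k < D.nrel → evp s (nthWord D.words k) = 1)
    (hfix : ∀ k, evp s (nthWord D.words k) • x₀ = x₀) :
    ∀ i, i < D.nf → D.Holds s x₀ (D.fa i) (D.fg i) (D.fb i) := by
  intro i
  induction i using Nat.strong_induction_on with
  | _ i IH =>
    intro hi
    have IH' : ∀ j, j < i → D.Holds s x₀ (D.fa j) (D.fg j) (D.fb j) :=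
      fun j hj => IH j hj (hj.trans hi)
    have hc := hV.facts_ok i hi
    simp only [checkFact, forceNat_eq] at hc
    cases hw : Nat.beq (D.fw i) 127 with
    | true =>
      change (Bool.rec _ (Nat.beq (bitField (D.defs.get 20 (D.fb i)) 0 18) (D.fa i) &&
        Nat.beq (bitField (D.defs.get 20 (D.fb i)) 18 2) (D.fg i) &&
        Nat.ble (Nat.succ (D.fa i)) (D.fb i)) (Nat.beq (D.fw i) 127) : Bool) = true at hc
      simp only [hw, Bool.and_eq_true] at hc
      obtain ⟨⟨h1, h2⟩, h4⟩ := hc
      have e1 := Nat.eq_of_beq_eq_true h1
      have e2 := Nat.eq_of_beq_eq_true h2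
      have l1 : D.fa i < D.fb i := Nat.le_of_ble_eq_true h4
      unfold Holds
      conv_rhs => rw [node]
      rw [dif_pos (by rw [e1]; exact l1), e1, e2]
    | false =>
      change (Bool.rec (D.checkScan (D.fa i) (D.fg i) (D.fb i) (D.fw i) (D.fz i)
        (D.walk i (D.flu i) (D.foff i) (D.fz i))
        (D.walk i (D.flv i) (Nat.add (D.foff i) (D.flu i)) (D.fz i))) _
        (Nat.beq (D.fw i) 127) : Bool) = true at hc
      simp only [hw] at hc
      rcases ha : D.walk i (D.flu i) (D.foff i) (D.fz i) with _ | ⟨a, u⟩
      · simp [ha, checkScan] at hc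
      rcases hb : D.walk i (D.flv i) (Nat.add (D.foff i) (D.flu i)) (D.fz i) with _ | ⟨b, v⟩
      · simp only [ha, hb, checkScan] at hc; exact absurd hc Bool.false_ne_true
      simp only [ha, hb, checkScan, Bool.and_eq_true, Bool.or_eq_true] at hc
      obtain ⟨⟨⟨h1, h2⟩, h4⟩, h5⟩ := hc
      have qa := D.walk_sound s x₀ hs h3 IH' _ _ _ _ _ ha
      have qb := D.walk_sound s x₀ hs h3 IH' _ _ _ _ _ hb
      rw [Nat.eq_of_beq_eq_true h1] at qa
      rw [Nat.eq_of_beq_eq_true h2] at qb
      have hfixz : evp s (nthWord D.words (D.fw i)) • D.node s x₀ (D.fz i) =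
          D.node s x₀ (D.fz i) := by
        rcases h4 with h4 | h4
        · rw [hrel _ (Nat.le_of_ble_eq_true h4), one_smul]
        · rw [Nat.eq_of_beq_eq_true h4, node_zero]; exact hfix _
      rw [natListEq_eq h5, evp_append] at hfixz
      unfold Holds
      cases hg : Nat.beq (D.fg i) 3 with
      | true =>
        simp only [hg, evp_invWord s hs, mul_smul] at hfixz
        rw [Nat.eq_of_beq_eq_true hg, h3, one_smul, qa, qb]
        rw [inv_smul_eq_iff] at hfixz
        exact hfixz
      | false =>
        simp only [hg, evp, evp_invWord s hs, mul_smul] at hfixz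
        rw [qa, qb]
        rw [inv_smul_eq_iff] at hfixz
        exact hfixz

/-- The table describes the action. -/
theorem smul_rep (hV : D.Valid) (hs : ∀ g, s (iv g) = (s g)⁻¹) (h3 : s 3 = 1)
    (hrel : ∀ k, k < D.nrel → evp s (nthWord D.words k) = 1)
    (hfix : ∀ k, evp s (nthWord D.words k) • x₀ = x₀) {i g : Nat} (hi : i < D.n) (hg : g < 3) :
    D.act i g < D.n ∧
      s g • D.node s x₀ (D.repNode i) = D.node s x₀ (D.repNode (D.act i g)) := by
  have hr := hV.rows_ok i hi
  simp only [checkRow, forceNat_eq] at hr
  have h := allFrom_spec hr g (Nat.zero_le g) (by omega)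
  simp only [Bool.and_eq_true] at h
  obtain ⟨⟨hd, hf⟩, hends⟩ := h
  refine ⟨Nat.le_of_ble_eq_true hd, ?_⟩
  set r := bitField (D.table.get 40 (Nat.add (Nat.mul i 3) g)) 18 22
  have hH := D.holds_all s x₀ hV hs h3 hrel hfix _ (Nat.le_of_ble_eq_true hf)
  simp only [fa, fg, fb, fact, Holds] at hH
  cases ho : Nat.beq (Nat.mod r 2) 0 with
  | true =>
    simp only [ho, Bool.and_eq_true] at hends
    obtain ⟨⟨hl, ha⟩, hb⟩ := hends
    rw [Nat.eq_of_beq_eq_true ha, Nat.eq_of_beq_eq_true hb, Nat.eq_of_beq_eq_true hl] at hH
    exact hH
  | false =>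
    simp only [ho, Bool.and_eq_true] at hends
    obtain ⟨⟨hl, hb⟩, ha⟩ := hends
    rw [Nat.eq_of_beq_eq_true ha, Nat.eq_of_beq_eq_true hb] at hH
    have hl' := Nat.eq_of_beq_eq_true hl
    show s g • D.node s x₀ (D.repNode i) = D.node s x₀ (D.repNode (D.act i g))
    have hh := hs (bitField (D.facts.get 112 (Nat.div r 2)) 18 2)
    rw [hl'] at hh
    rw [hh, inv_smul_eq_iff]
    exact hH.symm

end Cert

end Cfsg.Agent.H47.J4
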