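import Cfsg.Agent.H47.J4.Data

/-! Kernel checks of facts below 24000. -/

set_option autoImplicit false

namespace Cfsg.Agent.H47.J4

open Cfsg.Agent.H16

theorem facts_0 : allFrom (fun i => cert.checkFact i) 2000 0 = true := by decide +kernel

theorem facts_2000 : allFrom (fun i => cert.checkFact i) 2000 2000 = true := by decide +kernel

theorem facts_4000 : allFrom (fun i => cert.checkFact i) 2000 4000 = true := by decide +kernel

theorem facts_6000 : allFrom (fun i => cert.checkFact i) 2000 6000 = true := by decide +kernel

theorem facts_8000 : allFrom (fun i => cert.checkFact i) 2000 8000 = true := by decide +kernel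

theorem facts_10000 : allFrom (fun i => cert.checkFact i) 2000 10000 = true := by decide +kernel

theorem facts_12000 : allFrom (fun i => cert.checkFact i) 2000 12000 = true := by decide +kernel

theorem facts_14000 : allFrom (fun i => cert.checkFact i) 2000 14000 = true := by decide +kernel

theorem facts_16000 : allFrom (fun i => cert.checkFact i) 2000 16000 = true := by decide +kernel

theorem facts_18000 : allFrom (fun i => cert.checkFact i) 2000 18000 = true := by decide +kernel

theorem facts_20000 : allFrom (fun i => cert.checkFact i) 2000 20000 = true := by decide +kernel

theorem facts_22000 : allFrom (fun i => cert.checkFact i) 2000 22000 = true := by decide +kernel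

end Cfsg.Agent.H47.J4
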