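import Cfsg.Agent.H47.J4.Data

/-! Kernel checks of facts below 48000. -/

set_option autoImplicit false

namespace Cfsg.Agent.H47.J4

open Cfsg.Agent.H16

theorem facts_24000 : allFrom (fun i => cert.checkFact i) 2000 24000 = true := by decide +kernel

theorem facts_26000 : allFrom (fun i => cert.checkFact i) 2000 26000 = true := by decide +kernel

theorem facts_28000 : allFrom (fun i => cert.checkFact i) 2000 28000 = true := by decide +kernel

theorem facts_30000 : allFrom (fun i => cert.checkFact i) 2000 30000 = true := by decide +kernel

theorem facts_32000 : allFrom (fun i => cert.checkFact i) 2000 32000 = true := by decide +kernel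

theorem facts_34000 : allFrom (fun i => cert.checkFact i) 2000 34000 = true := by decide +kernel

theorem facts_36000 : allFrom (fun i => cert.checkFact i) 2000 36000 = true := by decide +kernel

theorem facts_38000 : allFrom (fun i => cert.checkFact i) 2000 38000 = true := by decide +kernel

theorem facts_40000 : allFrom (fun i => cert.checkFact i) 2000 40000 = true := by decide +kernel

theorem facts_42000 : allFrom (fun i => cert.checkFact i) 2000 42000 = true := by decide +kernel

theorem facts_44000 : allFrom (fun i => cert.checkFact i) 2000 44000 = true := by decide +kernel

theorem facts_46000 : allFrom (fun i => cert.checkFact i) 2000 46000 = true := by decide +kernel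

end Cfsg.Agent.H47.J4
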