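import Cfsg.Agent.H47.J4.Data

/-! Kernel checks of facts below 264000. -/

set_option autoImplicit false

namespace Cfsg.Agent.H47.J4

open Cfsg.Agent.H16

theorem facts_240000 : allFrom (fun i => cert.checkFact i) 2000 240000 = true := by decide +kernel

theorem facts_242000 : allFrom (fun i => cert.checkFact i) 2000 242000 = true := by decide +kernel

theorem facts_244000 : allFrom (fun i => cert.checkFact i) 2000 244000 = true := by decide +kernel

theorem facts_246000 : allFrom (fun i => cert.checkFact i) 2000 246000 = true := by decide +kernel

theorem facts_248000 : allFrom (fun i => cert.checkFact i) 2000 248000 = true := by decide +kernel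

theorem facts_250000 : allFrom (fun i => cert.checkFact i) 2000 250000 = true := by decide +kernel

theorem facts_252000 : allFrom (fun i => cert.checkFact i) 2000 252000 = true := by decide +kernel

theorem facts_254000 : allFrom (fun i => cert.checkFact i) 2000 254000 = true := by decide +kernel

theorem facts_256000 : allFrom (fun i => cert.checkFact i) 2000 256000 = true := by decide +kernel

theorem facts_258000 : allFrom (fun i => cert.checkFact i) 2000 258000 = true := by decide +kernel

theorem facts_260000 : allFrom (fun i => cert.checkFact i) 2000 260000 = true := by decide +kernel

theorem facts_262000 : allFrom (fun i => cert.checkFact i) 2000 262000 = true := by decide +kernel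

end Cfsg.Agent.H47.J4
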