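import Cfsg.Agent.H47.J4.Data

/-! Kernel checks of facts below 282224. -/

set_option autoImplicit false

namespace Cfsg.Agent.H47.J4

open Cfsg.Agent.H16

theorem facts_264000 : allFrom (fun i => cert.checkFact i) 2000 264000 = true := by decide +kernel

theorem facts_266000 : allFrom (fun i => cert.checkFact i) 2000 266000 = true := by decide +kernel

theorem facts_268000 : allFrom (fun i => cert.checkFact i) 2000 268000 = true := by decide +kernel

theorem facts_270000 : allFrom (fun i => cert.checkFact i) 2000 270000 = true := by decide +kernel

theorem facts_272000 : allFrom (fun i => cert.checkFact i) 2000 272000 = true := by decide +kernel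

theorem facts_274000 : allFrom (fun i => cert.checkFact i) 2000 274000 = true := by decide +kernel

theorem facts_276000 : allFrom (fun i => cert.checkFact i) 2000 276000 = true := by decide +kernel

theorem facts_278000 : allFrom (fun i => cert.checkFact i) 2000 278000 = true := by decide +kernel

theorem facts_280000 : allFrom (fun i => cert.checkFact i) 2000 280000 = true := by decide +kernel

theorem facts_282000 : allFrom (fun i => cert.checkFact i) 224 282000 = true := by decide +kernel

end Cfsg.Agent.H47.J4
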