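import Cfsg.Agent.H47.J4.Data

/-! Kernel checks of facts below 72000. -/

set_option autoImplicit false

namespace Cfsg.Agent.H47.J4

open Cfsg.Agent.H16

theorem facts_48000 : allFrom (fun i => cert.checkFact i) 2000 48000 = true := by decide +kernel

theorem facts_50000 : allFrom (fun i => cert.checkFact i) 2000 50000 = true := by decide +kernel

theorem facts_52000 : allFrom (fun i => cert.checkFact i) 2000 52000 = true := by decide +kernel

theorem facts_54000 : allFrom (fun i => cert.checkFact i) 2000 54000 = true := by decide +kernel

theorem facts_56000 : allFrom (fun i => cert.checkFact i) 2000 56000 = true := by decide +kernel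

theorem facts_58000 : allFrom (fun i => cert.checkFact i) 2000 58000 = true := by decide +kernel

theorem facts_60000 : allFrom (fun i => cert.checkFact i) 2000 60000 = true := by decide +kernel

theorem facts_62000 : allFrom (fun i => cert.checkFact i) 2000 62000 = true := by decide +kernel

theorem facts_64000 : allFrom (fun i => cert.checkFact i) 2000 64000 = true := by decide +kernel

theorem facts_66000 : allFrom (fun i => cert.checkFact i) 2000 66000 = true := by decide +kernel

theorem facts_68000 : allFrom (fun i => cert.checkFact i) 2000 68000 = true := by decide +kernel

theorem facts_70000 : allFrom (fun i => cert.checkFact i) 2000 70000 = true := by decide +kernel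

end Cfsg.Agent.H47.J4
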