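import Cfsg.Agent.H47.J4.Data

/-! Kernel checks of facts below 96000. -/

set_option autoImplicit false

namespace Cfsg.Agent.H47.J4

open Cfsg.Agent.H16

theorem facts_72000 : allFrom (fun i => cert.checkFact i) 2000 72000 = true := by decide +kernel

theorem facts_74000 : allFrom (fun i => cert.checkFact i) 2000 74000 = true := by decide +kernel

theorem facts_76000 : allFrom (fun i => cert.checkFact i) 2000 76000 = true := by decide +kernel

theorem facts_78000 : allFrom (fun i => cert.checkFact i) 2000 78000 = true := by decide +kernel

theorem facts_80000 : allFrom (fun i => cert.checkFact i) 2000 80000 = true := by decide +kernel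

theorem facts_82000 : allFrom (fun i => cert.checkFact i) 2000 82000 = true := by decide +kernel

theorem facts_84000 : allFrom (fun i => cert.checkFact i) 2000 84000 = true := by decide +kernel

theorem facts_86000 : allFrom (fun i => cert.checkFact i) 2000 86000 = true := by decide +kernel

theorem facts_88000 : allFrom (fun i => cert.checkFact i) 2000 88000 = true := by decide +kernel

theorem facts_90000 : allFrom (fun i => cert.checkFact i) 2000 90000 = true := by decide +kernel

theorem facts_92000 : allFrom (fun i => cert.checkFact i) 2000 92000 = true := by decide +kernel

theorem facts_94000 : allFrom (fun i => cert.checkFact i) 2000 94000 = true := by decide +kernel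

end Cfsg.Agent.H47.J4
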