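import Cfsg.Agent.H47.J4.Data

/-! Kernel checks of facts below 120000. -/

set_option autoImplicit false

namespace Cfsg.Agent.H47.J4

open Cfsg.Agent.H16

theorem facts_96000 : allFrom (fun i => cert.checkFact i) 2000 96000 = true := by decide +kernel

theorem facts_98000 : allFrom (fun i => cert.checkFact i) 2000 98000 = true := by decide +kernel

theorem facts_100000 : allFrom (fun i => cert.checkFact i) 2000 100000 = true := by decide +kernel

theorem facts_102000 : allFrom (fun i => cert.checkFact i) 2000 102000 = true := by decide +kernel

theorem facts_104000 : allFrom (fun i => cert.checkFact i) 2000 104000 = true := by decide +kernel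

theorem facts_106000 : allFrom (fun i => cert.checkFact i) 2000 106000 = true := by decide +kernel

theorem facts_108000 : allFrom (fun i => cert.checkFact i) 2000 108000 = true := by decide +kernel

theorem facts_110000 : allFrom (fun i => cert.checkFact i) 2000 110000 = true := by decide +kernel

theorem facts_112000 : allFrom (fun i => cert.checkFact i) 2000 112000 = true := by decide +kernel

theorem facts_114000 : allFrom (fun i => cert.checkFact i) 2000 114000 = true := by decide +kernel

theorem facts_116000 : allFrom (fun i => cert.checkFact i) 2000 116000 = true := by decide +kernel

theorem facts_118000 : allFrom (fun i => cert.checkFact i) 2000 118000 = true := by decide +kernel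

end Cfsg.Agent.H47.J4
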