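import Cfsg.Agent.H47.J4.Data

/-! Kernel checks of facts below 144000. -/

set_option autoImplicit false

namespace Cfsg.Agent.H47.J4

open Cfsg.Agent.H16

theorem facts_120000 : allFrom (fun i => cert.checkFact i) 2000 120000 = true := by decide +kernel

theorem facts_122000 : allFrom (fun i => cert.checkFact i) 2000 122000 = true := by decide +kernel

theorem facts_124000 : allFrom (fun i => cert.checkFact i) 2000 124000 = true := by decide +kernel

theorem facts_126000 : allFrom (fun i => cert.checkFact i) 2000 126000 = true := by decide +kernel

theorem facts_128000 : allFrom (fun i => cert.checkFact i) 2000 128000 = true := by decide +kernel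

theorem facts_130000 : allFrom (fun i => cert.checkFact i) 2000 130000 = true := by decide +kernel

theorem facts_132000 : allFrom (fun i => cert.checkFact i) 2000 132000 = true := by decide +kernel

theorem facts_134000 : allFrom (fun i => cert.checkFact i) 2000 134000 = true := by decide +kernel

theorem facts_136000 : allFrom (fun i => cert.checkFact i) 2000 136000 = true := by decide +kernel

theorem facts_138000 : allFrom (fun i => cert.checkFact i) 2000 138000 = true := by decide +kernel

theorem facts_140000 : allFrom (fun i => cert.checkFact i) 2000 140000 = true := by decide +kernel

theorem facts_142000 : allFrom (fun i => cert.checkFact i) 2000 142000 = true := by decide +kernel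

end Cfsg.Agent.H47.J4
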