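import Cfsg.Agent.H47.J4.Data

/-! Kernel checks of facts below 168000. -/

set_option autoImplicit false

namespace Cfsg.Agent.H47.J4

open Cfsg.Agent.H16

theorem facts_144000 : allFrom (fun i => cert.checkFact i) 2000 144000 = true := by decide +kernel

theorem facts_146000 : allFrom (fun i => cert.checkFact i) 2000 146000 = true := by decide +kernel

theorem facts_148000 : allFrom (fun i => cert.checkFact i) 2000 148000 = true := by decide +kernel

theorem facts_150000 : allFrom (fun i => cert.checkFact i) 2000 150000 = true := by decide +kernel

theorem facts_152000 : allFrom (fun i => cert.checkFact i) 2000 152000 = true := by decide +kernel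

theorem facts_154000 : allFrom (fun i => cert.checkFact i) 2000 154000 = true := by decide +kernel

theorem facts_156000 : allFrom (fun i => cert.checkFact i) 2000 156000 = true := by decide +kernel

theorem facts_158000 : allFrom (fun i => cert.checkFact i) 2000 158000 = true := by decide +kernel

theorem facts_160000 : allFrom (fun i => cert.checkFact i) 2000 160000 = true := by decide +kernel

theorem facts_162000 : allFrom (fun i => cert.checkFact i) 2000 162000 = true := by decide +kernel

theorem facts_164000 : allFrom (fun i => cert.checkFact i) 2000 164000 = true := by decide +kernel

theorem facts_166000 : allFrom (fun i => cert.checkFact i) 2000 166000 = true := by decide +kernel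

end Cfsg.Agent.H47.J4
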