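import Cfsg.Agent.H47.J4.Data

/-! Kernel checks of facts below 192000. -/

set_option autoImplicit false

namespace Cfsg.Agent.H47.J4

open Cfsg.Agent.H16

theorem facts_168000 : allFrom (fun i => cert.checkFact i) 2000 168000 = true := by decide +kernel

theorem facts_170000 : allFrom (fun i => cert.checkFact i) 2000 170000 = true := by decide +kernel

theorem facts_172000 : allFrom (fun i => cert.checkFact i) 2000 172000 = true := by decide +kernel

theorem facts_174000 : allFrom (fun i => cert.checkFact i) 2000 174000 = true := by decide +kernel

theorem facts_176000 : allFrom (fun i => cert.checkFact i) 2000 176000 = true := by decide +kernel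

theorem facts_178000 : allFrom (fun i => cert.checkFact i) 2000 178000 = true := by decide +kernel

theorem facts_180000 : allFrom (fun i => cert.checkFact i) 2000 180000 = true := by decide +kernel

theorem facts_182000 : allFrom (fun i => cert.checkFact i) 2000 182000 = true := by decide +kernel

theorem facts_184000 : allFrom (fun i => cert.checkFact i) 2000 184000 = true := by decide +kernel

theorem facts_186000 : allFrom (fun i => cert.checkFact i) 2000 186000 = true := by decide +kernel

theorem facts_188000 : allFrom (fun i => cert.checkFact i) 2000 188000 = true := by decide +kernel

theorem facts_190000 : allFrom (fun i => cert.checkFact i) 2000 190000 = true := by decide +kernel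

end Cfsg.Agent.H47.J4
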