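import Cfsg.Agent.H47.J4.Data

/-! Kernel checks of facts below 216000. -/

set_option autoImplicit false

namespace Cfsg.Agent.H47.J4

open Cfsg.Agent.H16

theorem facts_192000 : allFrom (fun i => cert.checkFact i) 2000 192000 = true := by decide +kernel

theorem facts_194000 : allFrom (fun i => cert.checkFact i) 2000 194000 = true := by decide +kernel

theorem facts_196000 : allFrom (fun i => cert.checkFact i) 2000 196000 = true := by decide +kernel

theorem facts_198000 : allFrom (fun i => cert.checkFact i) 2000 198000 = true := by decide +kernel

theorem facts_200000 : allFrom (fun i => cert.checkFact i) 2000 200000 = true := by decide +kernel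

theorem facts_202000 : allFrom (fun i => cert.checkFact i) 2000 202000 = true := by decide +kernel

theorem facts_204000 : allFrom (fun i => cert.checkFact i) 2000 204000 = true := by decide +kernel

theorem facts_206000 : allFrom (fun i => cert.checkFact i) 2000 206000 = true := by decide +kernel

theorem facts_208000 : allFrom (fun i => cert.checkFact i) 2000 208000 = true := by decide +kernel

theorem facts_210000 : allFrom (fun i => cert.checkFact i) 2000 210000 = true := by decide +kernel

theorem facts_212000 : allFrom (fun i => cert.checkFact i) 2000 212000 = true := by decide +kernel

theorem facts_214000 : allFrom (fun i => cert.checkFact i) 2000 214000 = true := by decide +kernel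

end Cfsg.Agent.H47.J4
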