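import Cfsg.Agent.H47.J4.Data

/-! Kernel checks of facts below 240000. -/

set_option autoImplicit false

namespace Cfsg.Agent.H47.J4

open Cfsg.Agent.H16

theorem facts_216000 : allFrom (fun i => cert.checkFact i) 2000 216000 = true := by decide +kernel

theorem facts_218000 : allFrom (fun i => cert.checkFact i) 2000 218000 = true := by decide +kernel

theorem facts_220000 : allFrom (fun i => cert.checkFact i) 2000 220000 = true := by decide +kernel

theorem facts_222000 : allFrom (fun i => cert.checkFact i) 2000 222000 = true := by decide +kernel

theorem facts_224000 : allFrom (fun i => cert.checkFact i) 2000 224000 = true := by decide +kernel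

theorem facts_226000 : allFrom (fun i => cert.checkFact i) 2000 226000 = true := by decide +kernel

theorem facts_228000 : allFrom (fun i => cert.checkFact i) 2000 228000 = true := by decide +kernel

theorem facts_230000 : allFrom (fun i => cert.checkFact i) 2000 230000 = true := by decide +kernel

theorem facts_232000 : allFrom (fun i => cert.checkFact i) 2000 232000 = true := by decide +kernel

theorem facts_234000 : allFrom (fun i => cert.checkFact i) 2000 234000 = true := by decide +kernel

theorem facts_236000 : allFrom (fun i => cert.checkFact i) 2000 236000 = true := by decide +kernel

theorem facts_238000 : allFrom (fun i => cert.checkFact i) 2000 238000 = true := by decide +kernel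

end Cfsg.Agent.H47.J4
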