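import Mathlib
import Cfsg.Agent.H47.J4.Enum

/-!
The group on two generators with the seven relators of the Mathieu group inside the presented
Janko group, and a test for consequences of single relators.
-/

set_option autoImplicit false

namespace Cfsg.Agent.H47.J4

open Cfsg.Agent.H16

/-- the seven relators as words read along paths -/
def baseW : List (List Nat) :=
  [[0,0],
   [2,2,2],
   [0,2,0,2,0,2,0,2,0,2,0,2,0,2,0,2,0,2,0,2,0,2,0,2,0,2,0,2,0,2,0,2,0,2,0,2,0,2,0,2,0,2,0,2,0,2],
   [0,1,0,2,0,1,0,2,0,1,0,2,0,1,0,2,0,1,0,2,0,1,0,2,0,1,0,2,0,1,0,2,0,1,0,2,0,1,0,2,0,1,0,2,0,1,0,2],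
   [0,1,0,1,0,2,0,2,0,1,0,1,0,2,0,2,0,1,0,1,0,2,0,2,0,1,0,1,0,2,0,2,0,1,0,1,0,2,0,2],
   [0,2,0,2,0,1,0,2,0,1,0,2,0,1,0,2,0,2,0,1,0,2,0,1,0,2,0,1,0,2,0,2,0,1,0,2,0,1,0,2,0,1,0,2,0,2,0,1,0,2,0,1,0,2,0,1],
   [0,2,0,2,0,1,0,2,0,2,0,1,0,2,0,2,0,1,0,2,0,1,0,1,0,2,0,1,0,1,0,2,0,1,0,1]]

/-- a letter valuation satisfying the relators -/
structure Good {G : Type*} [Group G] (t : Nat → G) : Prop where
  two : t 2 = (t 1)⁻¹
  outside : ∀ g, 3 ≤ g → t g = 1
  base : ∀ w ∈ baseW, evp t w = 1

/-- values in the free group -/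
def freeVal : Nat → FreeGroup (Fin 2)
  | 0 => FreeGroup.of 0
  | 1 => FreeGroup.of 1
  | 2 => (FreeGroup.of 1)⁻¹
  | _ => 1

/-- the relators in the free group -/
def relsP : Set (FreeGroup (Fin 2)) := {r | ∃ w ∈ baseW, evp freeVal w = r}

/-- the presented group -/
abbrev PGrp : Type := PresentedGroup relsP

/-- its letters -/
def pval (g : Nat) : PGrp := PresentedGroup.mk relsP (freeVal g)

theorem evp_comp {G H : Type*} [Group G] [Group H] (f : G →* H) (t : Nat → G) :
    ∀ w : List Nat, evp (fun g => f (t g)) w = f (evp t w)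
  | [] => by simp [evp]
  | g :: w => by simp [evp, evp_comp f t w]

theorem evp_congr {G : Type*} [Group G] (s t : Nat → G) :
    ∀ w : List Nat, (∀ g ∈ w, s g = t g) → evp s w = evp t w
  | [], _ => rfl
  | g :: w, h => by
    rw [evp, evp, evp_congr s t w fun x hx => h x (List.mem_cons_of_mem _ hx),
      h g (List.mem_cons_self ..)]

theorem freeVal_outside : ∀ g, 3 ≤ g → freeVal g = 1
  | 0, h | 1, h | 2, h => absurd h (by omega)
  | _ + 3, _ => rfl

theorem good_pval : Good pval := by
  refine ⟨rfl, fun g hg => ?_, fun w hw => ?_⟩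
  · rw [pval, freeVal_outside g hg]; rfl
  · rw [show evp pval w = PresentedGroup.mk relsP (evp freeVal w) from
      evp_comp (PresentedGroup.mk relsP) freeVal w]
    exact PresentedGroup.one_of_mem ⟨w, hw, rfl⟩

theorem closure_pval : Subgroup.closure {pval 0, pval 1} = (⊤ : Subgroup PGrp) := by
  rw [eq_top_iff, ← PresentedGroup.closure_range_of, Subgroup.closure_le]
  rintro _ ⟨i, rfl⟩
  fin_cases i
  · exact Subgroup.subset_closure (Or.inl rfl)
  · exact Subgroup.subset_closure (Or.inr rfl)

section

variable {G : Type*} [Group G] {t : Nat → G}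

/-- the map from the presented group -/
def phom (h : Good t) : PGrp →* G :=
  PresentedGroup.toGroup (rels := relsP) (f := fun i : Fin 2 => t i) (by
    rintro r ⟨w, hw, rfl⟩
    rw [← evp_comp]
    refine (evp_congr _ t w fun g _ => ?_).trans (h.base w hw)
    match g with
    | 0 => simp [freeVal]
    | 1 => simp [freeVal]
    | 2 => simp [freeVal, h.two]
    | g + 3 => simp [freeVal, h.outside (g + 3) (by omega)])

theorem phom_pval (h : Good t) (g : Nat) : phom h (pval g) = t g := by
  have e : ∀ i : Fin 2, phom h (PresentedGroup.mk relsP (FreeGroup.of i)) = t i :=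
    fun i => PresentedGroup.toGroup.of _
  match g with
  | 0 => exact e 0
  | 1 => exact e 1
  | 2 =>
    show phom h (PresentedGroup.mk relsP (FreeGroup.of 1)⁻¹) = _
    rw [map_inv, map_inv, e 1, h.two]; rfl
  | g + 3 =>
    rw [pval, freeVal_outside _ (by omega), map_one, map_one, h.outside _ (by omega)]

theorem phom_evp (h : Good t) (w : List Nat) : phom h (evp pval w) = evp t w := by
  rw [← evp_comp]
  exact evp_congr _ _ _ fun g _ => phom_pval h g

theorem Good.sq (h : Good t) : t 0 * t 0 = 1 := by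
  simpa [evp] using h.base [0, 0] (by simp [baseW])

theorem Good.cube (h : Good t) : t 1 * t 1 * t 1 = 1 := by
  have := h.base [2, 2, 2] (by simp [baseW])
  simp only [evp, one_mul, h.two] at this
  rw [← inv_eq_one]
  simpa [mul_inv_rev, mul_assoc] using this

theorem Good.iv (h : Good t) (g : Nat) : t (J4.iv g) = (t g)⁻¹ := by
  match g with
  | 0 => exact (inv_eq_of_mul_eq_one_right h.sq).symm
  | 1 => exact h.two
  | 2 => rw [h.two, inv_inv]; rfl
  | g + 3 =>
    have e : J4.iv (g + 3) = g + 3 := by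
      simp [J4.iv, show Nat.beq (g + 3) 1 = false from rfl, show Nat.beq (g + 3) 2 = false from rfl]
    rw [e, h.outside _ (by omega), inv_one]

theorem Good.three (h : Good t) : t 3 = 1 := h.outside 3 le_rfl

end

/-- one step of the normal form of the free product -/
noncomputable def pushN (g : Nat) : List Nat → List Nat
  | [] => [g]
  | h :: r =>
    if g = 0 ∧ h = 0 then r
    else if g = 1 ∧ h = 1 then 2 :: r
    else if g = 2 ∧ h = 2 then 1 :: r
    else if (g = 1 ∧ h = 2) ∨ (g = 2 ∧ h = 1) then r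
    else g :: h :: r

/-- normal form in the free product of groups of orders two and three -/
noncomputable def norm : List Nat → List Nat
  | [] => []
  | g :: w => pushN g (norm w)

theorem evp_norm {G : Type*} [Group G] {t : Nat → G} (ht : Good t) :
    ∀ w : List Nat, evp t (norm w) = evp t w
  | [] => rfl
  | g :: w => by
    show evp t (pushN g (norm w)) = evp t w * t g
    rw [← evp_norm ht w]
    have hsq := ht.sq
    have h11 : t 1 * t 1 = t 2 := by rw [ht.two]; exact eq_inv_of_mul_eq_one_left ht.cube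
    have h22 : t 2 * t 2 = t 1 := by
      rw [ht.two, ← mul_inv_rev, h11, ht.two, inv_inv]
    have h12 : t 1 * t 2 = 1 := by rw [ht.two, mul_inv_cancel]
    have h21 : t 2 * t 1 = 1 := by rw [ht.two, inv_mul_cancel]
    rcases hn : norm w with _ | ⟨h, r⟩
    · rfl
    simp only [pushN]
    split_ifs with c1 c2 c3 c4
    · obtain ⟨rfl, rfl⟩ := c1; simp [evp, mul_assoc, hsq]
    · obtain ⟨rfl, rfl⟩ := c2; simp [evp, mul_assoc, h11]
    · obtain ⟨rfl, rfl⟩ := c3; simp [evp, mul_assoc, h22]
    · rcases c4 with ⟨rfl, rfl⟩ | ⟨rfl, rfl⟩ <;> simp [evp, mul_assoc, h12, h21]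
    · rfl

/-- `w` equals a conjugate of a relator or of its inverse in the free product, or is trivial there -/
noncomputable def isConseq (w : List Nat) : Option (List Nat × Nat × Bool) → Bool
  | none => natListEq (norm w) []
  | some (q, k, sgn) =>
    natListEq (norm w)
      (norm (invWord q ++ (if sgn then invWord (nthWord baseW k) else nthWord baseW k) ++ q))

theorem evp_of_conseq {G : Type*} [Group G] {t : Nat → G} (ht : Good t) {w : List Nat}
    {c : Option (List Nat × Nat × Bool)} (h : isConseq w c = true) : evp t w = 1 := by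
  have hb : ∀ k, evp t (nthWord baseW k) = 1 := fun k => by
    rw [nthWord_eq_getD]
    by_cases hk : k < baseW.length
    · rw [List.getD_eq_getElem _ _ hk]; exact ht.base _ (List.getElem_mem _)
    · rw [List.getD_eq_default _ _ (by omega)]; rfl
  rcases c with _ | ⟨q, k, sgn⟩
  · rw [← evp_norm ht w, natListEq_eq h]; rfl
  · rw [← evp_norm ht w, natListEq_eq h, evp_norm ht, evp_append, evp_append, evp_invWord t ht.iv]
    have : evp t (if sgn then invWord (nthWord baseW k) else nthWord baseW k) = 1 := by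
      split
      · rw [evp_invWord t ht.iv, hb, inv_one]
      · exact hb k
    rw [this, one_mul, mul_inv_cancel]

theorem comm_of_conseq {G : Type*} [Group G] {t : Nat → G} (ht : Good t) {w : List Nat}
    {c : Option (List Nat × Nat × Bool)} (h : isConseq (invWord w ++ [0] ++ w ++ [0]) c = true) :
    t 0 * evp t w = evp t w * t 0 := by
  have h1 := evp_of_conseq ht h
  simp only [evp_append, evp_invWord t ht.iv, evp, one_mul] at h1
  rw [← mul_assoc, ← mul_assoc, mul_inv_eq_one] at h1
  calc t 0 * evp t w = t 0 * evp t w * (t 0 * t 0) := by rw [ht.sq, mul_one]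
    _ = evp t w * t 0 := by rw [← mul_assoc, h1]

end Cfsg.Agent.H47.J4
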