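import Cfsg.Prelude.Def_Spor_J4
import Cfsg.Agent.H47.J4.RepData

/-! The relators of the presented Janko group as words in x, y, the inverse of y and t. -/

set_option autoImplicit false

namespace Cfsg.Agent.H47.J4

/-- values of the four letters -/
def lval {G : Type*} [Group G] (f : Cfsg.Spor.J4.Gen → G) : Nat → G
  | 0 => f .x
  | 1 => f .y
  | 2 => (f .y)⁻¹
  | 3 => f .t
  | _ => 1

/-- product of the letters of a word -/
def wval {G : Type*} [Group G] (f : Cfsg.Spor.J4.Gen → G) (w : List Nat) : G :=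
  (w.map (lval f)).prod

theorem extra_map {G : Type*} [Group G] (f : Cfsg.Spor.J4.Gen → G)
    (hx : (f .x)⁻¹ = f .x) (ht : (f .t)⁻¹ = f .t) :
    Cfsg.Spor.J4.extra.map (FreeGroup.lift f) = relW.map (wval f) := by
  simp [Cfsg.Spor.J4.extra, relW, wval, lval, pow_succ, mul_assoc, hx, ht]

theorem coxRelators_empty : Cfsg.Spor.coxRelators Cfsg.Spor.J4.edges = ∅ := by
  ext r
  simp [Cfsg.Spor.coxRelators, Cfsg.Spor.coxNodes, Cfsg.Spor.J4.edges]

end Cfsg.Agent.H47.J4
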