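import Cfsg.Agent.H47.J4.Rels
import Cfsg.Agent.H47.J4.Bits

/-! A representation of the presented Janko group with nontrivial image of x. -/

set_option autoImplicit false

namespace Cfsg.Agent.H47.J4

/-- the matrix of a letter -/
def colOf : Nat → List Nat
  | 0 => colX
  | 1 => colY
  | 2 => colYi
  | _ => colT

theorem col_lt : ∀ g < 4, ∀ c ∈ colOf g, c < 2 ^ 112 := by decide +kernel

theorem colOf_lt (g : Nat) : ∀ c ∈ colOf g, c < 2 ^ 112 := by
  match g with
  | 0 => exact col_lt 0 (by norm_num)
  | 1 => exact col_lt 1 (by norm_num)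
  | 2 => exact col_lt 2 (by norm_num)
  | _ + 3 => exact col_lt 3 (by norm_num)

theorem colOf_length (g : Nat) : (colOf g).length ≤ width := by
  match g with
  | 0 => decide +kernel
  | 1 => decide +kernel
  | 2 => decide +kernel
  | _ + 3 => exact (by decide +kernel : colT.length ≤ width)

theorem inverse_ok : ∀ w ∈ [[0, 0], [1, 2], [2, 1], [3, 3]], wfix colOf w = true := by decide +kernel

theorem relW_ok : ∀ w ∈ relW, wfix colOf w = true := by decide +kernel

theorem relW_lt : ∀ w ∈ relW, ∀ g ∈ w, g < 4 := by decide +kernel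

/-- the vectors -/
abbrev Vec : Type := {v : Nat // v < 2 ^ 112}

/-- action of a letter on the vectors -/
noncomputable def act (g : Nat) (v : Vec) : Vec := ⟨lin (colOf g) v.1, lin_lt _ (colOf_lt g) _⟩

theorem act_act {g h : Nat} (hw : wfix colOf [g, h] = true) (v : Vec) : act g (act h v) = v :=
  Subtype.ext (wapp_of_wfix colOf_lt colOf_length hw v.2)

/-- the generators as permutations of the vectors -/
noncomputable def repF : Cfsg.Spor.J4.Gen → Equiv.Perm Vec
  | .x => ⟨act 0, act 0, act_act (inverse_ok _ (by simp)), act_act (inverse_ok _ (by simp))⟩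
  | .y => ⟨act 1, act 2, act_act (inverse_ok _ (by simp)), act_act (inverse_ok _ (by simp))⟩
  | .t => ⟨act 3, act 3, act_act (inverse_ok _ (by simp)), act_act (inverse_ok _ (by simp))⟩

theorem lval_repF {g : Nat} (hg : g < 4) (v : Vec) : lval repF g v = act g v := by
  match g, hg with
  | 0, _ => rfl
  | 1, _ => rfl
  | 2, _ => rfl
  | 3, _ => rfl

theorem wval_repF : ∀ (w : List Nat), (∀ g ∈ w, g < 4) → ∀ v : Vec,
    (wval repF w v).1 = wapp colOf w v.1
  | [], _, _ => rfl
  | g :: w, h, v => by
    have ih := wval_repF w (fun x hx => h x (List.mem_cons_of_mem _ hx)) v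
    show (lval repF g (wval repF w v)).1 = _
    rw [lval_repF (h g (List.mem_cons_self ..))]
    show lin (colOf g) (wval repF w v).1 = _
    rw [ih]
    rfl

theorem repF_x_inv : (repF .x)⁻¹ = repF .x := rfl

theorem repF_t_inv : (repF .t)⁻¹ = repF .t := rfl

theorem repF_rels : ∀ r ∈ Cfsg.Spor.coxRelators Cfsg.Spor.J4.edges ∪
    {r | r ∈ Cfsg.Spor.J4.extra}, FreeGroup.lift repF r = 1 := by
  intro r hr
  rw [coxRelators_empty, Set.empty_union] at hr
  have h : FreeGroup.lift repF r ∈ relW.map (wval repF) :=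
    extra_map repF repF_x_inv repF_t_inv ▸ List.mem_map_of_mem hr
  obtain ⟨w, hw, e⟩ := List.mem_map.1 h
  rw [← e]
  refine Equiv.ext fun v => Subtype.ext ?_
  rw [wval_repF w (relW_lt w hw), wapp_of_wfix colOf_lt colOf_length (relW_ok w hw) v.2]
  rfl

/-- the representation of the presented group -/
noncomputable def rep : Cfsg.Spor.J4 →* Equiv.Perm Vec := PresentedGroup.toGroup repF_rels

theorem rep_x_ne_one : rep (PresentedGroup.of .x) ≠ 1 := by
  rw [rep, PresentedGroup.toGroup.of]
  intro h
  have e : lin colX 1 = 1 := congrArg Subtype.val (DFunLike.congr_fun h (⟨1, by norm_num⟩ : Vec))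
  exact absurd e (by decide +kernel)

end Cfsg.Agent.H47.J4
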