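import Cfsg.Agent.H47.J4.Data

/-! Kernel checks of rows below 31878. -/

set_option autoImplicit false

namespace Cfsg.Agent.H47.J4

open Cfsg.Agent.H16

theorem rows_16000 : allFrom (fun i => cert.checkRow i) 1000 16000 = true := by decide +kernel

theorem rows_17000 : allFrom (fun i => cert.checkRow i) 1000 17000 = true := by decide +kernel

theorem rows_18000 : allFrom (fun i => cert.checkRow i) 1000 18000 = true := by decide +kernel

theorem rows_19000 : allFrom (fun i => cert.checkRow i) 1000 19000 = true := by decide +kernel

theorem rows_20000 : allFrom (fun i => cert.checkRow i) 1000 20000 = true := by decide +kernel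

theorem rows_21000 : allFrom (fun i => cert.checkRow i) 1000 21000 = true := by decide +kernel

theorem rows_22000 : allFrom (fun i => cert.checkRow i) 1000 22000 = true := by decide +kernel

theorem rows_23000 : allFrom (fun i => cert.checkRow i) 1000 23000 = true := by decide +kernel

theorem rows_24000 : allFrom (fun i => cert.checkRow i) 1000 24000 = true := by decide +kernel

theorem rows_25000 : allFrom (fun i => cert.checkRow i) 1000 25000 = true := by decide +kernel

theorem rows_26000 : allFrom (fun i => cert.checkRow i) 1000 26000 = true := by decide +kernel

theorem rows_27000 : allFrom (fun i => cert.checkRow i) 1000 27000 = true := by decide +kernel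

theorem rows_28000 : allFrom (fun i => cert.checkRow i) 1000 28000 = true := by decide +kernel

theorem rows_29000 : allFrom (fun i => cert.checkRow i) 1000 29000 = true := by decide +kernel

theorem rows_30000 : allFrom (fun i => cert.checkRow i) 1000 30000 = true := by decide +kernel

theorem rows_31000 : allFrom (fun i => cert.checkRow i) 878 31000 = true := by decide +kernel

end Cfsg.Agent.H47.J4
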