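import Cfsg.Agent.H47.J4.Central
import Cfsg.Agent.H47.J4.Rep
import Cfsg.Agent.H11.M24Simple

/-! The subgroup of the presented Janko group generated by x and y. -/

set_option autoImplicit false

namespace Cfsg.Agent.H47.J4

/-- the projection of the free group onto the presented group -/
def proj : FreeGroup Cfsg.Spor.J4.Gen →* Cfsg.Spor.J4 := PresentedGroup.mk _

/-- the generators in the presented group -/
def jgen (i : Cfsg.Spor.J4.Gen) : Cfsg.Spor.J4 := proj (FreeGroup.of i)

theorem lift_jgen (r : FreeGroup Cfsg.Spor.J4.Gen) : FreeGroup.lift jgen r = proj r :=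
  DFunLike.congr_fun (FreeGroup.ext_hom (FreeGroup.lift jgen) proj fun _ => FreeGroup.lift_apply_of) r

theorem proj_extra {r : FreeGroup Cfsg.Spor.J4.Gen} (h : r ∈ Cfsg.Spor.J4.extra) : proj r = 1 :=
  PresentedGroup.one_of_mem (Or.inr h)

theorem jgen_x_inv : (jgen .x)⁻¹ = jgen .x := by
  have h := proj_extra (r := Cfsg.Spor.J4.x ^ 2) (by simp [Cfsg.Spor.J4.extra])
  rw [pow_two, map_mul] at h
  exact inv_eq_of_mul_eq_one_right h

theorem jgen_t_inv : (jgen .t)⁻¹ = jgen .t := by
  have h := proj_extra (r := Cfsg.Spor.J4.t ^ 2) (by simp [Cfsg.Spor.J4.extra])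
  rw [pow_two, map_mul] at h
  exact inv_eq_of_mul_eq_one_right h

theorem wval_jgen {w : List Nat} (hw : w ∈ relW) : wval jgen w = 1 := by
  have h : wval jgen w ∈ Cfsg.Spor.J4.extra.map (FreeGroup.lift jgen) :=
    (extra_map jgen jgen_x_inv jgen_t_inv).symm ▸ List.mem_map_of_mem hw
  obtain ⟨r, hr, e⟩ := List.mem_map.1 h
  rw [← e, lift_jgen, proj_extra hr]

/-- the letters x, y, inverse of y in the presented Janko group -/
def jval : Nat → Cfsg.Spor.J4
  | 0 => jgen .x
  | 1 => jgen .y
  | 2 => (jgen .y)⁻¹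
  | _ => 1

theorem evp_reverse {G : Type*} [Group G] (s : Nat → G) :
    ∀ w : List Nat, evp s w.reverse = (w.map s).prod
  | [] => rfl
  | g :: w => by rw [List.reverse_cons, evp_append, evp_reverse s w]; simp [evp]

theorem baseW_eq : baseW.map (fun w => (invWord w).reverse) = relW.take 7 := by decide +kernel

theorem jval_iv : ∀ g, jval (iv g) = (jval g)⁻¹ := by
  intro g
  match g with
  | 0 => exact jgen_x_inv.symm
  | 1 => rfl
  | 2 => exact (inv_inv _).symm
  | g + 3 =>
    have e : iv (g + 3) = g + 3 := by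
      simp [iv, show Nat.beq (g + 3) 1 = false from rfl, show Nat.beq (g + 3) 2 = false from rfl]
    rw [e]; exact inv_one.symm

theorem relW_take_lt : ∀ w ∈ relW.take 7, ∀ g ∈ w, g < 3 := by decide +kernel

theorem good_jval : Good jval := by
  refine ⟨rfl, fun g hg => ?_, fun w hw => ?_⟩
  · match g, hg with
    | 0, h | 1, h | 2, h => exact absurd h (by omega)
    | _ + 3, _ => rfl
  have hm : (invWord w).reverse ∈ relW.take 7 := baseW_eq ▸ List.mem_map_of_mem hw
  have h : evp jval (invWord w) = 1 := by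
    rw [← List.reverse_reverse (invWord w), evp_reverse,
      ← wval_jgen (List.mem_of_mem_take hm), wval]
    refine congrArg List.prod (List.map_congr_left fun g hg => ?_)
    match g, relW_take_lt _ hm g hg with
    | 0, _ => rfl
    | 1, _ => rfl
    | 2, _ => rfl
  rwa [evp_invWord jval jval_iv, inv_eq_one] at h

/-- the map of the seven-relator group into the presented Janko group -/
noncomputable def toJ4 : PGrp →* Cfsg.Spor.J4 := phom good_jval

theorem range_toJ4 : toJ4.range =
    (Subgroup.closure ({Cfsg.Spor.J4.x, Cfsg.Spor.J4.y} : Set (FreeGroup Cfsg.Spor.J4.Gen))).map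
      proj := by
  rw [MonoidHom.range_eq_map, ← closure_pval, MonoidHom.map_closure, MonoidHom.map_closure,
    Set.image_pair, Set.image_pair, toJ4, phom_pval, phom_pval]
  rfl

theorem toJ4_injective : Function.Injective toJ4 := by
  haveI : IsSimpleGroup M24 := H11.isSimpleGroup_M24
  haveI : IsSimpleGroup PGrp := pgrpEquiv.isSimpleGroup
  rw [← MonoidHom.ker_eq_bot_iff]
  refine (toJ4.normal_ker.eq_bot_or_eq_top).resolve_right fun h => ?_
  have hx : toJ4 (pval 0) = 1 := (MonoidHom.mem_ker).1 (h ▸ Subgroup.mem_top _)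
  rw [toJ4, phom_pval] at hx
  exact rep_x_ne_one ((congrArg rep hx).trans (map_one rep))

/-- The subgroup generated by x and y is a Mathieu group. -/
theorem xy_iso_m24 : Nonempty (((Subgroup.closure
    ({Cfsg.Spor.J4.x, Cfsg.Spor.J4.y} : Set (FreeGroup Cfsg.Spor.J4.Gen))).map proj) ≃* Cfsg.M24) :=
  ⟨(MulEquiv.subgroupCongr range_toJ4).symm.trans
    ((MonoidHom.ofInjective toJ4_injective).symm.trans pgrpEquiv)⟩

end Cfsg.Agent.H47.J4
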